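import Mathlib

set_option autoImplicit false

/-!
Piece (M3) of the S1456 split project (helper8): if `P` is a normal `p`-subgroup, `D ≤ P` is
normal and some `e ∈ P` has at most `p` fixed points on `D`, then every `p'`-element of the
derived subgroup centralizes `D`.
-/

namespace Cfsg.Agent.Lib.helper21.S1456M3

open scoped commutatorElement

/-- Commutators centralize a cyclic normal subgroup. -/
theorem comm_cyclic_normal {Q : Type*} [Group Q] (N : Subgroup Q) [N.Normal] [IsCyclic N]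
    (x y : Q) (n : Q) (hn : n ∈ N) : ⁅x, y⁆ * n = n * ⁅x, y⁆ := by
  have key : ∀ x : Q, ∃ a : ℤ, ∀ n ∈ N, x * n * x⁻¹ = n ^ a := by
    intro x
    obtain ⟨a, ha⟩ := MonoidHom.map_cyclic ((MulAut.conjNormal x : MulAut N).toMonoidHom)
    refine ⟨a, fun n hn => ?_⟩
    have := congrArg Subtype.val (ha ⟨n, hn⟩)
    simpa using this
  have sw : ∀ x y : Q, ∀ n ∈ N, x * y * n * y⁻¹ * x⁻¹ = y * x * n * x⁻¹ * y⁻¹ := by
    intro x y n hn
    obtain ⟨a, ha⟩ := key x
    obtain ⟨b, hb⟩ := key y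
    have h1 : x * y * n * y⁻¹ * x⁻¹ = n ^ (a * b) := by
      have : x * y * n * y⁻¹ * x⁻¹ = x * (y * n * y⁻¹) * x⁻¹ := by group
      rw [this, hb n hn, ← conj_zpow, ha n hn, ← zpow_mul]
    have h2 : y * x * n * x⁻¹ * y⁻¹ = n ^ (b * a) := by
      have : y * x * n * x⁻¹ * y⁻¹ = y * (x * n * x⁻¹) * y⁻¹ := by group
      rw [this, ha n hn, ← conj_zpow, hb n hn, ← zpow_mul]
    rw [h1, h2, mul_comm]
  have hm : x⁻¹ * y⁻¹ * n * (x⁻¹ * y⁻¹)⁻¹ ∈ N := ‹N.Normal›.conj_mem n hn _
  have h := sw x y _ hm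
  have e1 : x * y * (x⁻¹ * y⁻¹ * n * (x⁻¹ * y⁻¹)⁻¹) * y⁻¹ * x⁻¹ = ⁅x, y⁆ * n * ⁅x, y⁆⁻¹ := by
    rw [commutatorElement_def]; group
  have e2 : y * x * (x⁻¹ * y⁻¹ * n * (x⁻¹ * y⁻¹)⁻¹) * x⁻¹ * y⁻¹ = n := by group
  rw [e1, e2] at h
  exact mul_inv_eq_iff_eq_mul.mp h

variable {G : Type*} [Group G] [Finite G]

/-- If `M ≤ N` are normal, `N` is a `p`-group and `|N| ≤ p |M|`, then the derived subgroup acts
trivially on `N / M`. -/
theorem comm_mem_of_card_le (p : ℕ) [Fact p.Prime] (N M : Subgroup G) [N.Normal] [M.Normal]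
    (hN : IsPGroup p N) (hMN : M ≤ N) (hidx : Nat.card N ≤ p * Nat.card M) :
    ∀ g ∈ commutator G, ∀ d ∈ N, ⁅g, d⁆ ∈ M := by
  have hp : p.Prime := Fact.out
  have hsurj : Function.Surjective (QuotientGroup.mk' M) := QuotientGroup.mk'_surjective M
  have hNn : (N.map (QuotientGroup.mk' M)).Normal :=
    Subgroup.Normal.map inferInstance _ hsurj
  have hker : (QuotientGroup.mk' M).ker ≤ N := by rw [QuotientGroup.ker_mk']; exact hMN
  have hidx' : (N.map (QuotientGroup.mk' M)).index = N.index :=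
    Subgroup.index_map_eq N hsurj hker
  have h1 := Subgroup.index_mul_card (N.map (QuotientGroup.mk' M))
  have h2 := Subgroup.index_mul_card N
  have h3 := Subgroup.index_mul_card M
  have h4 : M.index = Nat.card (G ⧸ M) := Subgroup.index_eq_card M
  have hN0 : N.index ≠ 0 := Subgroup.index_ne_zero_of_finite
  have hMpos : 0 < Nat.card M := Nat.card_pos
  have hcard : Nat.card (N.map (QuotientGroup.mk' M)) * Nat.card M = Nat.card N := by
    have : N.index * (Nat.card (N.map (QuotientGroup.mk' M)) * Nat.card M)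
        = N.index * Nat.card N := by
      rw [h2, ← h3, h4, ← h1, hidx']; ring
    exact Nat.eq_of_mul_eq_mul_left (Nat.pos_of_ne_zero hN0) this
  have hle : Nat.card (N.map (QuotientGroup.mk' M)) ≤ p := by
    have : Nat.card (N.map (QuotientGroup.mk' M)) * Nat.card M ≤ p * Nat.card M := by
      rw [hcard]; exact hidx
    exact Nat.le_of_mul_le_mul_right this hMpos
  have hNp : IsPGroup p (N.map (QuotientGroup.mk' M)) := hN.map _
  obtain ⟨k, hk⟩ := IsPGroup.iff_card.mp hNp
  have hcyc : IsCyclic (N.map (QuotientGroup.mk' M)) := by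
    rcases Nat.lt_or_ge k 1 with hk1 | hk1
    · have hk0 : k = 0 := by omega
      rw [hk0, pow_zero] at hk
      haveI : Subsingleton (N.map (QuotientGroup.mk' M)) :=
        (Nat.card_eq_one_iff_unique.mp hk).1
      exact isCyclic_of_subsingleton
    · have hk' : k = 1 := by
        by_contra hne
        have h2k : 2 ≤ k := by omega
        have : p ^ 2 ≤ p ^ k := Nat.pow_le_pow_right hp.pos h2k
        have hp2 : p < p ^ 2 := by
          have := hp.one_lt
          nlinarith
        omega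
      rw [hk', pow_one] at hk
      exact isCyclic_of_prime_card hk
  have hcomm : commutator G ≤
      (Subgroup.centralizer ((N.map (QuotientGroup.mk' M) : Subgroup (G ⧸ M)) : Set (G ⧸ M))).comap
        (QuotientGroup.mk' M) := by
    rw [commutator_def, Subgroup.commutator_le]
    intro x _ y _
    rw [Subgroup.mem_comap, map_commutatorElement, Subgroup.mem_centralizer_iff]
    intro n hn
    exact (comm_cyclic_normal (N.map (QuotientGroup.mk' M)) _ _ n hn).symm
  intro g hg d hd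
  have hgc := hcomm hg
  rw [Subgroup.mem_comap, Subgroup.mem_centralizer_iff] at hgc
  have hdm : (QuotientGroup.mk' M) d ∈ N.map (QuotientGroup.mk' M) := Subgroup.mem_map_of_mem _ hd
  have h5 := hgc _ hdm
  have h6 : (QuotientGroup.mk' M) ⁅g, d⁆ = 1 := by
    rw [map_commutatorElement, commutatorElement_eq_one_iff_mul_comm]
    exact h5.symm
  exact (QuotientGroup.eq_one_iff _).mp h6

/-- Counting: `|D| ≤ p |[D, P]|` when `e ∈ P` has at most `p` fixed points on `D`. -/
theorem card_le_mul_comm (p : ℕ) (P D : Subgroup G) (e : G) (he : e ∈ P)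
    (hfix : Nat.card ↥(D ⊓ Subgroup.centralizer ({e} : Set G)) ≤ p) :
    Nat.card D ≤ p * Nat.card ↥(⁅D, P⁆) := by
  classical
  let φ : D → ↥(⁅D, P⁆) := fun d => ⟨⁅(d : G), e⁆, Subgroup.commutator_mem_commutator d.2 he⟩
  have hφ : ∀ a b : D, φ a = φ b → (a : G)⁻¹ * (b : G) ∈ Subgroup.centralizer ({e} : Set G) := by
    intro a b hab
    have h1 : ⁅(a : G), e⁆ = ⁅(b : G), e⁆ := congrArg Subtype.val hab
    rw [commutatorElement_def, commutatorElement_def] at h1
    have h2 : (a : G) * e * (a : G)⁻¹ = (b : G) * e * (b : G)⁻¹ := mul_right_cancel h1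
    rw [Subgroup.mem_centralizer_iff]
    intro x hx
    rw [Set.mem_singleton_iff] at hx
    subst hx
    have h3 : x = (a : G)⁻¹ * ((b : G) * x * (b : G)⁻¹) * (a : G) := by
      rw [← h2]; group
    calc x * ((a : G)⁻¹ * (b : G)) = (a : G)⁻¹ * ((b : G) * x * (b : G)⁻¹) * (a : G) * ((a : G)⁻¹ * (b : G)) := by
          rw [← h3]
      _ = (a : G)⁻¹ * (b : G) * x := by group
  let r : D → D := fun d => Function.invFun φ (φ d)
  have hr : ∀ d : D, φ (r d) = φ d := fun d => Function.invFun_eq ⟨d, rfl⟩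
  let ψ : D → ↥(⁅D, P⁆) × ↥(D ⊓ Subgroup.centralizer ({e} : Set G)) := fun d =>
    (φ d, ⟨((r d : D) : G)⁻¹ * (d : G),
      ⟨D.mul_mem (D.inv_mem (r d).2) d.2, hφ (r d) d (hr d)⟩⟩)
  have hψ : Function.Injective ψ := by
    intro a b hab
    have h1 : φ a = φ b := congrArg Prod.fst hab
    have h2 : ((r a : D) : G)⁻¹ * (a : G) = ((r b : D) : G)⁻¹ * (b : G) :=
      congrArg (fun z => ((z.2 : ↥(D ⊓ Subgroup.centralizer ({e} : Set G))) : G)) hab
    have h3 : r a = r b := by
      change Function.invFun φ (φ a) = Function.invFun φ (φ b)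
      rw [h1]
    rw [h3] at h2
    exact Subtype.ext (mul_left_cancel h2)
  have hcard := Nat.card_le_card_of_injective ψ hψ
  rw [Nat.card_prod] at hcard
  calc Nat.card D ≤ Nat.card ↥(⁅D, P⁆) * Nat.card ↥(D ⊓ Subgroup.centralizer ({e} : Set G)) := hcard
    _ ≤ Nat.card ↥(⁅D, P⁆) * p := Nat.mul_le_mul_left _ hfix
    _ = p * Nat.card ↥(⁅D, P⁆) := mul_comm _ _

theorem cent_of_small_fix (p : ℕ) [Fact p.Prime] (P D : Subgroup G) [P.Normal] [D.Normal]
    (hP : IsPGroup p P) (hDP : D ≤ P) (e : G) (he : e ∈ P)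
    (hfix : Nat.card ↥(D ⊓ Subgroup.centralizer ({e} : Set G)) ≤ p) :
    ∀ g ∈ commutator G, (orderOf g).Coprime p → g ∈ Subgroup.centralizer (D : Set G) := by
  suffices H : ∀ n : ℕ, ∀ D : Subgroup G, D.Normal → D ≤ P → Nat.card D ≤ n →
      Nat.card ↥(D ⊓ Subgroup.centralizer ({e} : Set G)) ≤ p →
      ∀ g ∈ commutator G, (orderOf g).Coprime p → g ∈ Subgroup.centralizer (D : Set G) from
    H _ D inferInstance hDP le_rfl hfix
  intro n
  induction n with
  | zero =>
    intro D _ _ hcard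
    have : 0 < Nat.card D := Nat.card_pos
    omega
  | succ n ih =>
    intro D hDn hDP hcard hfix g hg hgp
    have := hDn
    by_cases hbot : D = ⊥
    · subst hbot
      rw [Subgroup.mem_centralizer_iff]
      intro h hh
      have : h = 1 := by simpa using hh
      subst this
      simp
    have hD1n : (⁅D, P⁆ : Subgroup G).Normal := Subgroup.commutator_normal D P
    have hD1D : ⁅D, P⁆ ≤ D := Subgroup.commutator_le_left D P
    have hne : ⁅D, P⁆ ≠ D := by
      intro heq
      have : Group.IsNilpotent P := hP.isNilpotent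
      obtain ⟨k, hk⟩ := (Subgroup.isNilpotent_iff_lowerCentralSeries P).mp inferInstance
      have hind : ∀ j, D ≤ P.lowerCentralSeries j := by
        intro j
        induction j with
        | zero => simpa using hDP
        | succ j ihj =>
          rw [Subgroup.lowerCentralSeries_succ]
          calc D = ⁅D, P⁆ := heq.symm
            _ ≤ ⁅P.lowerCentralSeries j, P⁆ := Subgroup.commutator_mono ihj le_rfl
      have := hind k
      rw [hk, le_bot_iff] at this
      exact hbot this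
    have hlt : Nat.card ↥(⁅D, P⁆) < Nat.card D := by
      by_contra h
      exact hne (Subgroup.eq_of_le_of_card_ge hD1D (not_lt.mp h))
    have hfix1 : Nat.card ↥(⁅D, P⁆ ⊓ Subgroup.centralizer ({e} : Set G)) ≤ p :=
      le_trans (Subgroup.card_le_of_le (inf_le_inf_right _ hD1D)) hfix
    have hg1 := ih ⁅D, P⁆ hD1n (hD1D.trans hDP) (by omega) hfix1 g hg hgp
    have hidx : Nat.card D ≤ p * Nat.card ↥(⁅D, P⁆) := card_le_mul_comm p P D e he hfix
    have hact := comm_mem_of_card_le p D ⁅D, P⁆ (hP.to_le hDP) hD1D hidx g hg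
    rw [Subgroup.mem_centralizer_iff]
    intro d hd
    -- c = ⁅g, d⁆ ∈ ⁅D, P⁆ commutes with g
    have hc := hact d hd
    rw [Subgroup.mem_centralizer_iff] at hg1
    have hcg : ⁅g, d⁆ * g = g * ⁅g, d⁆ := hg1 _ hc
    have hconj : g * d * g⁻¹ = ⁅g, d⁆ * d := by rw [commutatorElement_def]; group
    have hpow : ∀ k : ℕ, g ^ k * d * (g ^ k)⁻¹ = ⁅g, d⁆ ^ k * d := by
      intro k
      induction k with
      | zero => simp
      | succ k ihk =>
        have hcg' : g * ⁅g, d⁆ ^ k = ⁅g, d⁆ ^ k * g := by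
          have : Commute g ⁅g, d⁆ := hcg.symm
          exact (this.pow_right k).eq
        calc g ^ (k + 1) * d * (g ^ (k + 1))⁻¹ = g * (g ^ k * d * (g ^ k)⁻¹) * g⁻¹ := by
              rw [pow_succ']; group
          _ = g * (⁅g, d⁆ ^ k * d) * g⁻¹ := by rw [ihk]
          _ = (g * ⁅g, d⁆ ^ k) * d * g⁻¹ := by group
          _ = ⁅g, d⁆ ^ k * (g * d * g⁻¹) := by rw [hcg']; group
          _ = ⁅g, d⁆ ^ k * (⁅g, d⁆ * d) := by rw [hconj]
          _ = ⁅g, d⁆ ^ (k + 1) * d := by rw [pow_succ]; group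
    have h1 := hpow (orderOf g)
    rw [pow_orderOf_eq_one] at h1
    have h2 : ⁅g, d⁆ ^ orderOf g = 1 := by
      have : d = ⁅g, d⁆ ^ orderOf g * d := by simpa using h1
      exact (mul_eq_right.mp this.symm)
    have hcP : ⁅g, d⁆ ∈ P := hDP (hD1D hc)
    obtain ⟨j, hj⟩ := hP ⟨⁅g, d⁆, hcP⟩
    have hj' : ⁅g, d⁆ ^ p ^ j = 1 := by
      have := congrArg Subtype.val hj
      simpa using this
    have hcop : (orderOf g).Coprime (p ^ j) := Nat.Coprime.pow_right j hgp
    have h3 : orderOf ⁅g, d⁆ ∣ 1 := by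
      have hd1 := orderOf_dvd_of_pow_eq_one h2
      have hd2 := orderOf_dvd_of_pow_eq_one hj'
      have := Nat.dvd_gcd hd1 hd2
      rwa [hcop] at this
    have h4 : ⁅g, d⁆ = 1 := orderOf_eq_one_iff.mp (Nat.dvd_one.mp h3)
    rw [commutatorElement_eq_one_iff_mul_comm] at h4
    exact h4.symm

end Cfsg.Agent.Lib.helper21.S1456M3
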