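import Mathlib
import Cfsg.Agent.Lib.helper21.S1456M3

set_option autoImplicit false

/-!
Piece (V1) of the S1455 split project: the variant of `S1456M3.cent_of_small_fix` for arbitrary
`p'`-elements `g`, with conclusion `g ^ (p - 1) ∈ C(D)`.
-/

namespace Cfsg.Agent.Lib.helper21.S1455V1

open scoped commutatorElement

/-- The `(p-1)`-st power of any element centralizes a cyclic normal subgroup of exponent `p`. -/
theorem pow_conj_cyclic {Q : Type*} [Group Q] (p : ℕ) [Fact p.Prime] (N : Subgroup Q) [N.Normal]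
    [IsCyclic N] (hNp : ∀ n ∈ N, n ^ p = 1) (x : Q) (n : Q) (hn : n ∈ N) :
    x ^ (p - 1) * n = n * x ^ (p - 1) := by
  have hp : p.Prime := Fact.out
  obtain ⟨a, ha⟩ : ∃ a : ℤ, ∀ n ∈ N, x * n * x⁻¹ = n ^ a := by
    obtain ⟨a, ha⟩ := MonoidHom.map_cyclic ((MulAut.conjNormal x : MulAut N).toMonoidHom)
    refine ⟨a, fun n hn => ?_⟩
    have := congrArg Subtype.val (ha ⟨n, hn⟩)
    simpa using this
  by_cases hpa : (p : ℤ) ∣ a
  · obtain ⟨t, rfl⟩ := hpa
    have h1 : x * n * x⁻¹ = 1 := by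
      rw [ha n hn, zpow_mul, zpow_natCast, hNp n hn, one_zpow]
    have hn1 : n = 1 := by
      have h2 : n = x⁻¹ * (x * n * x⁻¹) * x := by group
      rw [h2, h1]; group
    rw [hn1]; simp
  · have hk : ∀ k : ℕ, x ^ k * n * (x ^ k)⁻¹ = n ^ (a ^ k) := by
      intro k
      induction k with
      | zero => simp
      | succ k ih =>
        calc x ^ (k + 1) * n * (x ^ (k + 1))⁻¹ = x * (x ^ k * n * (x ^ k)⁻¹) * x⁻¹ := by
              rw [pow_succ']; group
          _ = x * n ^ (a ^ k) * x⁻¹ := by rw [ih]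
          _ = (x * n * x⁻¹) ^ (a ^ k) := by rw [conj_zpow]
          _ = (n ^ a) ^ (a ^ k) := by rw [ha n hn]
          _ = n ^ (a ^ (k + 1)) := by rw [← zpow_mul, pow_succ']
    have hcop : IsCoprime a (p : ℤ) :=
      ((Nat.prime_iff_prime_int.mp hp).irreducible.coprime_iff_not_dvd.mpr hpa).symm
    have hfer : a ^ (p - 1) ≡ 1 [ZMOD p] := Int.ModEq.pow_card_sub_one_eq_one hp hcop
    obtain ⟨t, ht⟩ := Int.modEq_iff_dvd.mp hfer.symm
    have ht' : a ^ (p - 1) = 1 + (p : ℤ) * t := by linarith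
    have h3 := hk (p - 1)
    rw [ht', zpow_add, zpow_one, zpow_mul, zpow_natCast, hNp n hn, one_zpow, mul_one] at h3
    exact mul_inv_eq_iff_eq_mul.mp h3

variable {G : Type*} [Group G] [Finite G]

/-- If `M ≤ N` are normal, `N` is a `p`-group and `|N| ≤ p |M|`, then every `(p-1)`-st power acts
trivially on `N / M`. -/
theorem pow_mem_of_card_le (p : ℕ) [Fact p.Prime] (N M : Subgroup G) [N.Normal] [M.Normal]
    (hN : IsPGroup p N) (hMN : M ≤ N) (hidx : Nat.card N ≤ p * Nat.card M) :
    ∀ g : G, ∀ d ∈ N, ⁅g ^ (p - 1), d⁆ ∈ M := by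
  have hp : p.Prime := Fact.out
  have hsurj : Function.Surjective (QuotientGroup.mk' M) := QuotientGroup.mk'_surjective M
  have hNn : (N.map (QuotientGroup.mk' M)).Normal :=
    Subgroup.Normal.map inferInstance _ hsurj
  have hker : (QuotientGroup.mk' M).ker ≤ N := by rw [QuotientGroup.ker_mk']; exact hMN
  have hidx' : (N.map (QuotientGroup.mk' M)).index = N.index :=
    Subgroup.index_map_eq N hsurj hker
  have h1 := Subgroup.index_mul_card (N.map (QuotientGroup.mk' M))
  have h2 := Subgroup.index_mul_card N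
  have h3 := Subgroup.index_mul_card M
  have h4 : M.index = Nat.card (G ⧸ M) := Subgroup.index_eq_card M
  have hN0 : N.index ≠ 0 := Subgroup.index_ne_zero_of_finite
  have hMpos : 0 < Nat.card M := Nat.card_pos
  have hcard : Nat.card (N.map (QuotientGroup.mk' M)) * Nat.card M = Nat.card N := by
    have : N.index * (Nat.card (N.map (QuotientGroup.mk' M)) * Nat.card M)
        = N.index * Nat.card N := by
      rw [h2, ← h3, h4, ← h1, hidx']; ring
    exact Nat.eq_of_mul_eq_mul_left (Nat.pos_of_ne_zero hN0) this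
  have hle : Nat.card (N.map (QuotientGroup.mk' M)) ≤ p := by
    have : Nat.card (N.map (QuotientGroup.mk' M)) * Nat.card M ≤ p * Nat.card M := by
      rw [hcard]; exact hidx
    exact Nat.le_of_mul_le_mul_right this hMpos
  have hNp : IsPGroup p (N.map (QuotientGroup.mk' M)) := hN.map _
  obtain ⟨k, hk⟩ := IsPGroup.iff_card.mp hNp
  have hk1 : k ≤ 1 := by
    by_contra hne
    have h2k : 2 ≤ k := by omega
    have : p ^ 2 ≤ p ^ k := Nat.pow_le_pow_right hp.pos h2k
    have hp2 : p < p ^ 2 := by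
      have := hp.one_lt
      nlinarith
    omega
  have hcyc : IsCyclic (N.map (QuotientGroup.mk' M)) := by
    rcases Nat.lt_or_ge k 1 with hk0 | hk0
    · have hk0 : k = 0 := by omega
      rw [hk0, pow_zero] at hk
      haveI : Subsingleton (N.map (QuotientGroup.mk' M)) :=
        (Nat.card_eq_one_iff_unique.mp hk).1
      exact isCyclic_of_subsingleton
    · have hk' : k = 1 := by omega
      rw [hk', pow_one] at hk
      exact isCyclic_of_prime_card hk
  have hexp : ∀ n ∈ N.map (QuotientGroup.mk' M), n ^ p = 1 := by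
    intro n hn
    have h := pow_card_eq_one' (G := ↥(N.map (QuotientGroup.mk' M))) (x := ⟨n, hn⟩)
    rw [hk] at h
    have h' : n ^ p ^ k = 1 := by
      have := congrArg Subtype.val h
      simpa using this
    have hdvd : p ^ k ∣ p := by
      calc p ^ k ∣ p ^ 1 := pow_dvd_pow p hk1
        _ = p := pow_one p
    obtain ⟨c, hc⟩ := hdvd
    rw [hc, pow_mul, h', one_pow]
  intro g d hd
  have hdm : (QuotientGroup.mk' M) d ∈ N.map (QuotientGroup.mk' M) := Subgroup.mem_map_of_mem _ hd
  have h5 := pow_conj_cyclic p (N.map (QuotientGroup.mk' M)) hexp ((QuotientGroup.mk' M) g) _ hdm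
  have h6 : (QuotientGroup.mk' M) ⁅g ^ (p - 1), d⁆ = 1 := by
    rw [map_commutatorElement, commutatorElement_eq_one_iff_mul_comm, map_pow]
    exact h5
  exact (QuotientGroup.eq_one_iff _).mp h6

theorem pow_cent_of_small_fix (p : ℕ) [Fact p.Prime] (P D : Subgroup G) [P.Normal] [D.Normal]
    (hP : IsPGroup p P) (hDP : D ≤ P) (e : G) (he : e ∈ P)
    (hfix : Nat.card ↥(D ⊓ Subgroup.centralizer ({e} : Set G)) ≤ p) :
    ∀ g : G, (orderOf g).Coprime p → g ^ (p - 1) ∈ Subgroup.centralizer (D : Set G) := by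
  suffices H : ∀ n : ℕ, ∀ D : Subgroup G, D.Normal → D ≤ P → Nat.card D ≤ n →
      Nat.card ↥(D ⊓ Subgroup.centralizer ({e} : Set G)) ≤ p →
      ∀ g : G, (orderOf g).Coprime p → g ^ (p - 1) ∈ Subgroup.centralizer (D : Set G) from
    H _ D inferInstance hDP le_rfl hfix
  intro n
  induction n with
  | zero =>
    intro D _ _ hcard
    have : 0 < Nat.card D := Nat.card_pos
    omega
  | succ n ih =>
    intro D hDn hDP hcard hfix g0 hg0p
    have := hDn
    by_cases hbot : D = ⊥
    · subst hbot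
      rw [Subgroup.mem_centralizer_iff]
      intro h hh
      have : h = 1 := by simpa using hh
      subst this
      simp
    have hD1n : (⁅D, P⁆ : Subgroup G).Normal := Subgroup.commutator_normal D P
    have hD1D : ⁅D, P⁆ ≤ D := Subgroup.commutator_le_left D P
    have hne : ⁅D, P⁆ ≠ D := by
      intro heq
      have : Group.IsNilpotent P := hP.isNilpotent
      obtain ⟨k, hk⟩ := (Subgroup.isNilpotent_iff_lowerCentralSeries P).mp inferInstance
      have hind : ∀ j, D ≤ P.lowerCentralSeries j := by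
        intro j
        induction j with
        | zero => simpa using hDP
        | succ j ihj =>
          rw [Subgroup.lowerCentralSeries_succ]
          calc D = ⁅D, P⁆ := heq.symm
            _ ≤ ⁅P.lowerCentralSeries j, P⁆ := Subgroup.commutator_mono ihj le_rfl
      have := hind k
      rw [hk, le_bot_iff] at this
      exact hbot this
    have hlt : Nat.card ↥(⁅D, P⁆) < Nat.card D := by
      by_contra h
      exact hne (Subgroup.eq_of_le_of_card_ge hD1D (not_lt.mp h))
    have hfix1 : Nat.card ↥(⁅D, P⁆ ⊓ Subgroup.centralizer ({e} : Set G)) ≤ p :=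
      le_trans (Subgroup.card_le_of_le (inf_le_inf_right _ hD1D)) hfix
    have hg1 := ih ⁅D, P⁆ hD1n (hD1D.trans hDP) (by omega) hfix1 g0 hg0p
    have hidx : Nat.card D ≤ p * Nat.card ↥(⁅D, P⁆) :=
      Cfsg.Agent.Lib.helper21.S1456M3.card_le_mul_comm p P D e he hfix
    have hact := pow_mem_of_card_le p D ⁅D, P⁆ (hP.to_le hDP) hD1D hidx g0
    have hgp : (orderOf (g0 ^ (p - 1))).Coprime p :=
      Nat.Coprime.coprime_dvd_left (orderOf_pow_dvd (p - 1)) hg0p
    generalize g0 ^ (p - 1) = g at hg1 hact hgp ⊢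
    rw [Subgroup.mem_centralizer_iff]
    intro d hd
    have hc := hact d hd
    rw [Subgroup.mem_centralizer_iff] at hg1
    have hcg : ⁅g, d⁆ * g = g * ⁅g, d⁆ := hg1 _ hc
    have hconj : g * d * g⁻¹ = ⁅g, d⁆ * d := by rw [commutatorElement_def]; group
    have hpow : ∀ k : ℕ, g ^ k * d * (g ^ k)⁻¹ = ⁅g, d⁆ ^ k * d := by
      intro k
      induction k with
      | zero => simp
      | succ k ihk =>
        have hcg' : g * ⁅g, d⁆ ^ k = ⁅g, d⁆ ^ k * g := by
          have : Commute g ⁅g, d⁆ := hcg.symm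
          exact (this.pow_right k).eq
        calc g ^ (k + 1) * d * (g ^ (k + 1))⁻¹ = g * (g ^ k * d * (g ^ k)⁻¹) * g⁻¹ := by
              rw [pow_succ']; group
          _ = g * (⁅g, d⁆ ^ k * d) * g⁻¹ := by rw [ihk]
          _ = (g * ⁅g, d⁆ ^ k) * d * g⁻¹ := by group
          _ = ⁅g, d⁆ ^ k * (g * d * g⁻¹) := by rw [hcg']; group
          _ = ⁅g, d⁆ ^ k * (⁅g, d⁆ * d) := by rw [hconj]
          _ = ⁅g, d⁆ ^ (k + 1) * d := by rw [pow_succ]; group
    have h1 := hpow (orderOf g)
    rw [pow_orderOf_eq_one] at h1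
    have h2 : ⁅g, d⁆ ^ orderOf g = 1 := by
      have : d = ⁅g, d⁆ ^ orderOf g * d := by simpa using h1
      exact (mul_eq_right.mp this.symm)
    have hcP : ⁅g, d⁆ ∈ P := hDP (hD1D hc)
    obtain ⟨j, hj⟩ := hP ⟨⁅g, d⁆, hcP⟩
    have hj' : ⁅g, d⁆ ^ p ^ j = 1 := by
      have := congrArg Subtype.val hj
      simpa using this
    have hcop : (orderOf g).Coprime (p ^ j) := Nat.Coprime.pow_right j hgp
    have h3 : orderOf ⁅g, d⁆ ∣ 1 := by
      have hd1 := orderOf_dvd_of_pow_eq_one h2
      have hd2 := orderOf_dvd_of_pow_eq_one hj'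
      have := Nat.dvd_gcd hd1 hd2
      rwa [hcop] at this
    have h4 : ⁅g, d⁆ = 1 := orderOf_eq_one_iff.mp (Nat.dvd_one.mp h3)
    rw [commutatorElement_eq_one_iff_mul_comm] at h4
    exact h4.symm

end Cfsg.Agent.Lib.helper21.S1455V1
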