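import Mathlib
import Cfsg.Agent.Lib.helper1.Quat

set_option autoImplicit false

/-!
Core lemmas for groups whose element orders are 1, 2, 3, 4 (used by S4006):
* `class_two_aux`: a normal subgroup `N` without 3-torsion such that every element outside `N`
  has cube one satisfies the class-two identity;
* `elem_ab`: a class-two normal subgroup of exponent 4 acted on by an `S₃`-like pair `c, t`
  with all `c h` of order 3 and all `t h` of exponent 4 has exponent 2;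
* `unique_invol_exp4`: a finite group of exponent 4 with a unique involution and another
  nontrivial element is cyclic of order 4 or quaternion of order 8.
-/

namespace Cfsg.Agent.Lib.helper21

theorem r6 {R : Type*} [Ring R] (ω β : R) (h1 : ω * ω + ω + 1 = 0) (hβ : β * β = 0)
    (h2 : ((1 + β) * ω) * ((1 + β) * ω) + (1 + β) * ω + 1 = 0) : ω * β * ω = β := by
  have e : ((1 + β) * ω) * ((1 + β) * ω) + (1 + β) * ω + 1
      = (ω * ω + ω + 1) + ω * β * ω + β * (ω * ω + ω + 1) - β + β * ω * β * ω := by noncomm_ring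
  rw [e, h1] at h2
  have hD : ω * β * ω = β - β * ω * β * ω := by
    have h3 : ω * β * ω - β + β * ω * β * ω = 0 := by
      have : (0 : R) + ω * β * ω + β * 0 - β + β * ω * β * ω = ω * β * ω - β + β * ω * β * ω := by
        noncomm_ring
      rw [← this]; exact h2
    have : ω * β * ω = (ω * β * ω - β + β * ω * β * ω) + (β - β * ω * β * ω) := by noncomm_ring
    rw [this, h3, zero_add]
  have hz : β * ω * β * ω = 0 := by
    calc β * ω * β * ω = β * (ω * β * ω) := by noncomm_ring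
      _ = β * (β - β * ω * β * ω) := by rw [hD]
      _ = β * β - β * β * (ω * β * ω) := by noncomm_ring
      _ = 0 := by rw [hβ]; simp
  rw [hD, hz, sub_zero]

theorem ring_key {R : Type*} [Ring R] (ω b c : R) (h1 : ω * ω + ω + 1 = 0)
    (hb : b * b = 0) (hc : c * c = 0) (hbc : (b + c + b * c) * (b + c + b * c) = 0)
    (h2b : ((1 + b) * ω) * ((1 + b) * ω) + (1 + b) * ω + 1 = 0)
    (h2c : ((1 + c) * ω) * ((1 + c) * ω) + (1 + c) * ω + 1 = 0)
    (h2bc : ((1 + (b + c + b * c)) * ω) * ((1 + (b + c + b * c)) * ω)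
      + (1 + (b + c + b * c)) * ω + 1 = 0) :
    (3 : R) * (b * c) = 0 := by
  have hb6 := r6 ω b h1 hb h2b
  have hc6 := r6 ω c h1 hc h2c
  have hbc6 := r6 ω (b + c + b * c) h1 hbc h2bc
  have hω3 : ω * ω * ω = 1 := by
    have : ω * ω * ω = (ω - 1) * (ω * ω + ω + 1) + 1 := by noncomm_ring
    rw [this, h1, mul_zero, zero_add]
  have hbcω : ω * (b * c) * ω = b * c := by
    have : ω * (b * c) * ω = ω * (b + c + b * c) * ω - ω * b * ω - ω * c * ω := by noncomm_ring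
    rw [this, hbc6, hb6, hc6]; noncomm_ring
  have e1 : b * c = b * ω * c := by
    calc b * c = ω * (b * c) * ω := hbcω.symm
      _ = ω * b * (ω * ω * ω) * c * ω := by rw [hω3]; noncomm_ring
      _ = (ω * b * ω) * ω * (ω * c * ω) := by noncomm_ring
      _ = b * ω * c := by rw [hb6, hc6]
  have e2 : b * ω = ω * ω * b := by
    calc b * ω = (ω * ω * ω) * b * ω := by rw [hω3, one_mul]
      _ = ω * ω * (ω * b * ω) := by noncomm_ring
      _ = ω * ω * b := by rw [hb6]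
  have e3 : b * c - ω * ω * (b * c) = 0 := by
    rw [sub_eq_zero]
    calc b * c = b * ω * c := e1
      _ = ω * ω * b * c := by rw [e2]
      _ = ω * ω * (b * c) := by noncomm_ring
  have e4 : (3 : R) * (b * c) = (1 - ω) * (b * c - ω * ω * (b * c)) + (ω * ω + ω + 1) * (b * c)
      - (ω * ω * ω - 1) * (b * c) := by noncomm_ring
  rw [e4, e3, h1, hω3]; simp

open scoped IsMulCommutative in
noncomputable def conjEnd {Γ : Type*} [Group Γ] (A : Subgroup Γ) [hA : A.Normal] [IsMulCommutative A]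
    (g : Γ) : AddMonoid.End (Additive A) :=
  AddMonoidHom.mk' (fun u => Additive.ofMul
      (⟨g * ((Additive.toMul u : A) : Γ) * g⁻¹, hA.conj_mem _ (Additive.toMul u).2 g⟩ : A))
    (by
      intro u v
      apply Additive.toMul.injective
      apply Subtype.ext
      simp [mul_assoc])

open scoped IsMulCommutative in
theorem conjEnd_apply {Γ : Type*} [Group Γ] (A : Subgroup Γ) [hA : A.Normal] [IsMulCommutative A]
    (g : Γ) (u : Additive A) :
    ((Additive.toMul (conjEnd A g u) : A) : Γ) = g * ((Additive.toMul u : A) : Γ) * g⁻¹ := rfl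

open scoped IsMulCommutative in
theorem conjEnd_mul {Γ : Type*} [Group Γ] (A : Subgroup Γ) [hA : A.Normal] [IsMulCommutative A]
    (g h : Γ) : conjEnd A (g * h) = conjEnd A g * conjEnd A h := by
  apply AddMonoid.End.ext
  intro u
  apply Additive.toMul.injective
  apply Subtype.ext
  show ((Additive.toMul (conjEnd A (g * h) u) : A) : Γ) = ((Additive.toMul (conjEnd A g (conjEnd A h u)) : A) : Γ)
  rw [conjEnd_apply, conjEnd_apply, conjEnd_apply]
  group

open scoped IsMulCommutative in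
theorem conjEnd_one {Γ : Type*} [Group Γ] (A : Subgroup Γ) [hA : A.Normal] [IsMulCommutative A] :
    conjEnd A (1 : Γ) = 1 := by
  apply AddMonoid.End.ext
  intro u
  apply Additive.toMul.injective
  apply Subtype.ext
  show ((Additive.toMul (conjEnd A 1 u) : A) : Γ) = ((Additive.toMul u : A) : Γ)
  rw [conjEnd_apply]
  group

open scoped IsMulCommutative in
theorem end_eq_zero_iff {Γ : Type*} [Group Γ] (A : Subgroup Γ) [hA : A.Normal] [IsMulCommutative A]
    (u : Additive A) : u = 0 ↔ ((Additive.toMul u : A) : Γ) = 1 := by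
  constructor
  · rintro rfl; rfl
  · intro h
    apply Additive.toMul.injective
    apply Subtype.ext
    exact h

open scoped IsMulCommutative in
theorem rel3 {Γ : Type*} [Group Γ] (A : Subgroup Γ) [hA : A.Normal] [IsMulCommutative A]
    (g : Γ) (hg : ∀ u ∈ A, g * u * g⁻¹ * (g * g * u * g⁻¹ * g⁻¹) * u = 1) :
    conjEnd A g * conjEnd A g + conjEnd A g + 1 = 0 := by
  apply AddMonoid.End.ext
  intro u
  show conjEnd A g (conjEnd A g u) + conjEnd A g u + u = 0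
  rw [end_eq_zero_iff]
  have h := hg _ (Additive.toMul u).2
  show (g * (g * ((Additive.toMul u : A) : Γ) * g⁻¹) * g⁻¹) * (g * ((Additive.toMul u : A) : Γ) * g⁻¹) * ((Additive.toMul u : A) : Γ) = 1
  obtain ⟨x, hx⟩ : ∃ x : Γ, x = ((Additive.toMul u : A) : Γ) := ⟨_, rfl⟩
  rw [← hx] at h ⊢
  have hmem : x ∈ A := hx ▸ (Additive.toMul u).2
  have hc1 : (g * (g * x * g⁻¹) * g⁻¹) * (g * x * g⁻¹) = (g * x * g⁻¹) * (g * (g * x * g⁻¹) * g⁻¹) := by
    have h1 : g * x * g⁻¹ ∈ A := hA.conj_mem _ hmem g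
    have h2 : g * (g * x * g⁻¹) * g⁻¹ ∈ A := hA.conj_mem _ h1 g
    exact congrArg Subtype.val (mul_comm (⟨_, h2⟩ : A) ⟨_, h1⟩)
  rw [hc1, ← h]
  group

open scoped IsMulCommutative in
theorem relsq {Γ : Type*} [Group Γ] (A : Subgroup Γ) [hA : A.Normal] [IsMulCommutative A]
    (y : Γ) (hy : ∀ u ∈ A, y * (y * u * y⁻¹ * u⁻¹) = (y * u * y⁻¹ * u⁻¹) * y) :
    (conjEnd A y - 1) * (conjEnd A y - 1) = 0 := by
  apply AddMonoid.End.ext
  intro u
  show conjEnd A y (conjEnd A y u - u) - (conjEnd A y u - u) = 0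
  rw [sub_eq_zero]
  apply Additive.toMul.injective
  apply Subtype.ext
  rw [conjEnd_apply]
  have h := hy _ (Additive.toMul u).2
  have e : ((Additive.toMul (conjEnd A y u - u) : A) : Γ)
      = y * ((Additive.toMul u : A) : Γ) * y⁻¹ * (((Additive.toMul u : A) : Γ))⁻¹ := by
    rw [toMul_sub, Subgroup.coe_div, div_eq_mul_inv, conjEnd_apply]
  rw [e, h]; group


open scoped IsMulCommutative in
theorem sub_one_apply_coe {Γ : Type*} [Group Γ] (A : Subgroup Γ) [hA : A.Normal] [IsMulCommutative A]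
    (g : Γ) (u : Additive A) :
    ((Additive.toMul ((conjEnd A g - 1) u) : A) : Γ)
      = g * ((Additive.toMul u : A) : Γ) * g⁻¹ * (((Additive.toMul u : A) : Γ))⁻¹ := by
  show ((Additive.toMul (conjEnd A g u - u) : A) : Γ) = _
  rw [toMul_sub, Subgroup.coe_div, div_eq_mul_inv, conjEnd_apply]

theorem ring_id1 {R : Type*} [Ring R] (Y Z : R) :
    (Y - 1) + (Z - 1) + (Y - 1) * (Z - 1) = Y * Z - 1 := by noncomm_ring

theorem ring_id2 {R : Type*} [Ring R] (Y W : R) : (1 + (Y - 1)) * W = Y * W := by noncomm_ring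

open scoped IsMulCommutative in
theorem class_two_aux {Γ : Type*} [Group Γ] (N : Subgroup Γ) [hN : N.Normal] (c : Γ) (hc : c ∉ N)
    (h3 : ∀ g : Γ, g ∉ N → g ^ 3 = 1) (hno3 : ∀ u ∈ N, u ^ 3 = 1 → u = 1) :
    ∀ x ∈ N, ∀ y ∈ N, ∀ z ∈ N, y * (z * x * z⁻¹ * x⁻¹) = (z * x * z⁻¹ * x⁻¹) * y := by
  have h3' : ∀ g : Γ, g ∉ N → g * g * g = 1 := by
    intro g hg
    have := h3 g hg
    rwa [pow_succ, pow_two] at this
  have hT : ∀ g : Γ, g ∉ N → ∀ u ∈ N, g * u * g⁻¹ * (g * g * u * g⁻¹ * g⁻¹) * u = 1 := by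
    intro g hg u hu
    have hgu : g * u ∉ N := fun h => hg (by simpa using N.mul_mem h (N.inv_mem hu))
    have e : g * u * g⁻¹ * (g * g * u * g⁻¹ * g⁻¹) * u
        = (g * u) * (g * u) * (g * u) * (u⁻¹ * (g * g * g)⁻¹ * u) := by
      group
    rw [e, h3' g hg, h3' _ hgu]; group
  have hstar : ∀ g : Γ, g ∉ N → ∀ u ∈ N, Commute u (g * u * g⁻¹) := by
    intro g hg u hu
    have hg' : g⁻¹ ∉ N := fun h => hg (by simpa using N.inv_mem h)
    have t1 := hT g hg u hu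
    have t2 := hT g⁻¹ hg' u hu
    have t3 : (g * g * u * g⁻¹ * g⁻¹) * (g * u * g⁻¹) * u = 1 := by
      have e : (g * g * u * g⁻¹ * g⁻¹) * (g * u * g⁻¹) * u
          = (g * g * g) * (g⁻¹ * u * g⁻¹⁻¹ * (g⁻¹ * g⁻¹ * u * g⁻¹⁻¹ * g⁻¹⁻¹) * u)
            * (u⁻¹ * (g * g * g)⁻¹ * u) := by
        group
      rw [e, t2, h3' g hg]; group
    obtain ⟨p, hp⟩ : ∃ p : Γ, p = g * u * g⁻¹ := ⟨_, rfl⟩
    obtain ⟨q, hq⟩ : ∃ q : Γ, q = g * g * u * g⁻¹ * g⁻¹ := ⟨_, rfl⟩
    rw [← hp, ← hq] at t1 t3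
    rw [← hp]
    have hpq : p * q = q * p := mul_right_cancel (t1.trans t3.symm)
    have hu' : u = (p * q)⁻¹ := eq_inv_of_mul_eq_one_right t1
    have hcm : Commute p (p * q) := by
      show p * (p * q) = p * q * p
      calc p * (p * q) = p * (q * p) := by rw [hpq]
        _ = p * q * p := (mul_assoc p q p).symm
    have := (hcm.inv_right).symm
    rwa [← hu'] at this
  have hcc : c * c ∉ N := by
    intro h
    apply hc
    have h4 : c * c * (c * c) ∈ N := N.mul_mem h h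
    have e : c * c * (c * c) = (c * c * c) * c := by group
    rw [e, h3' c hc, one_mul] at h4
    exact h4
  have hE : ∀ u ∈ N, ∀ y ∈ N, Commute u (y * u * y⁻¹) := by
    intro u hu y hy
    have hyc : y * c ∉ N := fun h => hc (by simpa using N.mul_mem (N.inv_mem hy) h)
    have hycc : y * c * c ∉ N := fun h => hcc (by simpa [mul_assoc] using N.mul_mem (N.inv_mem hy) h)
    have h := hT c hc u hu
    have e : ((y * c) * u * (y * c)⁻¹ * ((y * c * c) * u * (y * c * c)⁻¹)) * (y * u * y⁻¹)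
        = y * (c * u * c⁻¹ * (c * c * u * c⁻¹ * c⁻¹) * u) * y⁻¹ := by group
    rw [h] at e
    have e2 : y * u * y⁻¹ = ((y * c) * u * (y * c)⁻¹ * ((y * c * c) * u * (y * c * c)⁻¹))⁻¹ :=
      eq_inv_of_mul_eq_one_right (by rw [e]; group)
    rw [e2]
    exact ((hstar _ hyc u hu).mul_right (hstar _ hycc u hu)).inv_right
  have hall : ∀ u ∈ N, ∀ g : Γ, Commute u (g * u * g⁻¹) := by
    intro u hu g
    by_cases hg : g ∈ N
    · exact hE u hu g hg
    · exact hstar g hg u hu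
  intro x hx y hy z hz
  obtain ⟨A, hAdef⟩ : ∃ A : Subgroup Γ, A = Subgroup.normalClosure ({x} : Set Γ) := ⟨_, rfl⟩
  haveI hAn : A.Normal := hAdef ▸ Subgroup.normalClosure_normal
  have hAN : A ≤ N := by
    rw [hAdef]
    exact Subgroup.normalClosure_le_normal (Set.singleton_subset_iff.mpr hx)
  have hxA : x ∈ A := by
    rw [hAdef]; exact Subgroup.subset_normalClosure (Set.mem_singleton x)
  have hAcomm : ∀ a ∈ A, ∀ b ∈ A, Commute a b := by
    intro a ha b hb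
    rw [hAdef] at ha hb
    unfold Subgroup.normalClosure at ha hb
    induction ha, hb using Subgroup.closure_induction₂ with
    | mem p q hp hq =>
      rw [Group.mem_conjugatesOfSet_iff] at hp hq
      obtain ⟨x1, hx1, hp⟩ := hp
      obtain ⟨x2, hx2, hq⟩ := hq
      rw [Set.mem_singleton_iff] at hx1 hx2
      rw [hx1] at hp
      rw [hx2] at hq
      obtain ⟨g1, rfl⟩ := isConj_iff.mp hp
      obtain ⟨g2, rfl⟩ := isConj_iff.mp hq
      have h := hall x hx (g1⁻¹ * g2)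
      show g1 * x * g1⁻¹ * (g2 * x * g2⁻¹) = g2 * x * g2⁻¹ * (g1 * x * g1⁻¹)
      have e1 : g1 * x * g1⁻¹ * (g2 * x * g2⁻¹) = g1 * (x * (g1⁻¹ * g2 * x * (g1⁻¹ * g2)⁻¹)) * g1⁻¹ := by
        group
      have e2 : g2 * x * g2⁻¹ * (g1 * x * g1⁻¹) = g1 * ((g1⁻¹ * g2 * x * (g1⁻¹ * g2)⁻¹) * x) * g1⁻¹ := by
        group
      rw [e1, e2, h.eq]
    | one_left p _ => exact Commute.one_left p
    | one_right p _ => exact Commute.one_right p
    | mul_left p q r _ _ _ h1 h2 => exact h1.mul_left h2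
    | mul_right p q r _ _ _ h1 h2 => exact h1.mul_right h2
    | inv_left p q _ _ h => exact h.inv_left
    | inv_right p q _ _ h => exact h.inv_right
  haveI : IsMulCommutative A := ⟨⟨fun a b => Subtype.ext (hAcomm a.1 a.2 b.1 b.2).eq⟩⟩
  have hsq : ∀ w ∈ N, (conjEnd A w - 1) * (conjEnd A w - 1) = 0 := by
    intro w hw
    apply relsq
    intro u hu
    have e : w * u * w⁻¹ * u⁻¹ = w * (u * w * u⁻¹)⁻¹ := by group
    rw [e]
    exact ((Commute.refl w).mul_right (hE w hw u (hAN hu)).inv_right).eq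
  have h3rel : ∀ g : Γ, g ∉ N → conjEnd A g * conjEnd A g + conjEnd A g + 1 = 0 := by
    intro g hg
    exact rel3 A g (fun u hu => hT g hg u (hAN hu))
  have hyc : y * c ∉ N := fun h => hc (by simpa using N.mul_mem (N.inv_mem hy) h)
  have hzc : z * c ∉ N := fun h => hc (by simpa using N.mul_mem (N.inv_mem hz) h)
  have hyzc : y * z * c ∉ N := by
    intro h
    apply hc
    have e : (y * z)⁻¹ * (y * z * c) = c := by group
    rw [← e]
    exact N.mul_mem (N.inv_mem (N.mul_mem hy hz)) h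
  have eyz : (conjEnd A y - 1) + (conjEnd A z - 1) + (conjEnd A y - 1) * (conjEnd A z - 1)
      = conjEnd A (y * z) - 1 := by
    rw [conjEnd_mul]; exact ring_id1 _ _
  have key := ring_key (conjEnd A c) (conjEnd A y - 1) (conjEnd A z - 1) (h3rel c hc)
    (hsq y hy) (hsq z hz) (by rw [eyz]; exact hsq _ (N.mul_mem hy hz))
    (by
      have e : (1 + (conjEnd A y - 1)) * conjEnd A c = conjEnd A (y * c) := by
        rw [conjEnd_mul]; exact ring_id2 _ _
      rw [e]; exact h3rel _ hyc)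
    (by
      have e : (1 + (conjEnd A z - 1)) * conjEnd A c = conjEnd A (z * c) := by
        rw [conjEnd_mul]; exact ring_id2 _ _
      rw [e]; exact h3rel _ hzc)
    (by
      rw [eyz]
      have e : (1 + (conjEnd A (y * z) - 1)) * conjEnd A c = conjEnd A (y * z * c) := by
        rw [conjEnd_mul A (y * z) c]; exact ring_id2 _ _
      rw [e]; exact h3rel _ hyzc)
  obtain ⟨ū, hū⟩ : ∃ ū : Additive A, ū = Additive.ofMul (⟨x, hxA⟩ : A) := ⟨_, rfl⟩
  have k1 : (3 : ℕ) • ((conjEnd A y - 1) ((conjEnd A z - 1) ū)) = 0 := by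
    have := congrArg (fun f : AddMonoid.End (Additive A) => f ū) key
    exact this
  obtain ⟨e, he⟩ : ∃ e : Additive A, e = (conjEnd A y - 1) ((conjEnd A z - 1) ū) := ⟨_, rfl⟩
  rw [← he] at k1
  have k2 : ((Additive.toMul e : A) : Γ) ^ 3 = 1 := by
    have : (Additive.toMul e : A) ^ 3 = 1 := by
      have := congrArg Additive.toMul k1
      simpa using this
    have := congrArg Subtype.val this
    simpa using this
  have k3 := hno3 _ (hAN (Additive.toMul e).2) k2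
  rw [he, sub_one_apply_coe, sub_one_apply_coe, hū] at k3
  have k4 : y * (z * x * z⁻¹ * x⁻¹) * y⁻¹ * (z * x * z⁻¹ * x⁻¹)⁻¹ = 1 := k3
  have k5 : y * (z * x * z⁻¹ * x⁻¹) * y⁻¹ = z * x * z⁻¹ * x⁻¹ := mul_inv_eq_one.mp k4
  calc y * (z * x * z⁻¹ * x⁻¹) = (y * (z * x * z⁻¹ * x⁻¹) * y⁻¹) * y := by group
    _ = (z * x * z⁻¹ * x⁻¹) * y := by rw [k5]

open scoped IsMulCommutative in
theorem comm_core {Q : Type*} [Group Q] (S : Subgroup Q) (hS : ∀ a ∈ S, ∀ b ∈ S, a * b = b * a)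
    (V CV TV TCV TCCV : Q) (hV : V ∈ S) (hCV : CV ∈ S) (hTV : TV ∈ S) (hTCV : TCV ∈ S)
    (hTCCV : TCCV ∈ S) (r2 : TV * TCV * TCCV = 1) :
    (TCV * V * (CV * TV)) * (TCCV * CV) = V * (CV * CV) := by
  haveI : IsMulCommutative S := ⟨⟨fun a b => Subtype.ext (hS a.1 a.2 b.1 b.2)⟩⟩
  have r2' : (⟨TV, hTV⟩ : S) * ⟨TCV, hTCV⟩ * ⟨TCCV, hTCCV⟩ = 1 := Subtype.ext r2
  have key : ((⟨TCV, hTCV⟩ : S) * ⟨V, hV⟩ * (⟨CV, hCV⟩ * ⟨TV, hTV⟩)) * (⟨TCCV, hTCCV⟩ * ⟨CV, hCV⟩)
      = ⟨V, hV⟩ * (⟨CV, hCV⟩ * ⟨CV, hCV⟩) := by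
    calc ((⟨TCV, hTCV⟩ : S) * ⟨V, hV⟩ * (⟨CV, hCV⟩ * ⟨TV, hTV⟩)) * (⟨TCCV, hTCCV⟩ * ⟨CV, hCV⟩)
        = ⟨V, hV⟩ * (⟨CV, hCV⟩ * ⟨CV, hCV⟩) * ((⟨TV, hTV⟩ : S) * ⟨TCV, hTCV⟩ * ⟨TCCV, hTCCV⟩) := by
          ac_rfl
      _ = ⟨V, hV⟩ * (⟨CV, hCV⟩ * ⟨CV, hCV⟩) := by rw [r2', mul_one]
  exact congrArg Subtype.val key

theorem elem_ab {G : Type*} [Group G] (H : Subgroup G) [hHn : H.Normal] (c t : G)
    (hc3 : c * c * c = 1) (ht2 : t * t = 1) (htc : t * c * t⁻¹ = c⁻¹)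
    (hH4 : ∀ h ∈ H, h ^ 4 = 1)
    (h3 : ∀ h ∈ H, (c * h) * (c * h) * (c * h) = 1)
    (h4 : ∀ h ∈ H, (t * h) ^ 4 = 1)
    (hcl : ∀ x ∈ H, ∀ y ∈ H, ∀ z ∈ H, y * (z * x * z⁻¹ * x⁻¹) = (z * x * z⁻¹ * x⁻¹) * y) :
    ∀ h ∈ H, h * h = 1 := by
  -- splitting identity
  have hT : ∀ x ∈ H, c * x * c⁻¹ * (c * c * x * c⁻¹ * c⁻¹) * x = 1 := by
    intro x hx
    have e : c * x * c⁻¹ * (c * c * x * c⁻¹ * c⁻¹) * x
        = (c * x) * (c * x) * (c * x) * (x⁻¹ * (c * c * c)⁻¹ * x) := by group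
    rw [e, h3 x hx, hc3]; group
  have hcinv : c⁻¹ = c * c := by
    have : c * c * c * c⁻¹ = c * c := by group
    rw [hc3, one_mul] at this; exact this
  have hct : c * t = t * (c * c) := by
    have h1 : t * c = c⁻¹ * t := by
      calc t * c = (t * c * t⁻¹) * t := by group
        _ = c⁻¹ * t := by rw [htc]
    calc c * t = c * (t * c) * c⁻¹ := by group
      _ = c * (c⁻¹ * t) * c⁻¹ := by rw [h1]
      _ = t * c⁻¹ := by group
      _ = t * (c * c) := by rw [hcinv]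
  -- (G): commuting elements of H: a commutes with c²-conjugate of b
  have hG : ∀ a ∈ H, ∀ b ∈ H, a * b = b * a →
      a * (c * c * b * c⁻¹ * c⁻¹) = (c * c * b * c⁻¹ * c⁻¹) * a := by
    intro a ha b hb hab
    have hcb : c * b * c⁻¹ ∈ H := hHn.conj_mem b hb c
    have Ta := hT a ha
    have Tb := hT b hb
    have Tx := hT (a * (c * b * c⁻¹)) (H.mul_mem ha hcb)
    have e : c * (a * (c * b * c⁻¹)) * c⁻¹ * (c * c * (a * (c * b * c⁻¹)) * c⁻¹ * c⁻¹)
          * (a * (c * b * c⁻¹))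
        = (c * a * c⁻¹) * (c * c * b * c⁻¹ * c⁻¹) * (c * c * a * c⁻¹ * c⁻¹)
          * ((c * c * c) * b * (c * c * c)⁻¹) * a * (c * b * c⁻¹) := by group
    rw [e, hc3, one_mul, inv_one, mul_one] at Tx
    have h22 : (c * c * b * c⁻¹ * c⁻¹) * (c * c * a * c⁻¹ * c⁻¹)
        = (c * c * a * c⁻¹ * c⁻¹) * (c * c * b * c⁻¹ * c⁻¹) := by
      calc (c * c * b * c⁻¹ * c⁻¹) * (c * c * a * c⁻¹ * c⁻¹) = c * c * (b * a) * c⁻¹ * c⁻¹ := by group
        _ = c * c * (a * b) * c⁻¹ * c⁻¹ := by rw [hab]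
        _ = (c * c * a * c⁻¹ * c⁻¹) * (c * c * b * c⁻¹ * c⁻¹) := by group
    obtain ⟨a1, ha1⟩ : ∃ a1, a1 = c * a * c⁻¹ := ⟨_, rfl⟩
    obtain ⟨a2, ha2⟩ : ∃ a2, a2 = c * c * a * c⁻¹ * c⁻¹ := ⟨_, rfl⟩
    obtain ⟨b1, hb1⟩ : ∃ b1, b1 = c * b * c⁻¹ := ⟨_, rfl⟩
    obtain ⟨b2, hb2⟩ : ∃ b2, b2 = c * c * b * c⁻¹ * c⁻¹ := ⟨_, rfl⟩
    rw [← ha1, ← ha2] at Ta
    rw [← hb1, ← hb2] at Tb
    rw [← ha1, ← ha2, ← hb1, ← hb2] at Tx
    rw [← ha2, ← hb2] at h22
    rw [← hb2]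
    have ea1 : a1 = a⁻¹ * a2⁻¹ := by
      have : a1 * (a2 * a) = 1 := by rw [← mul_assoc]; exact Ta
      rw [eq_inv_of_mul_eq_one_left this, mul_inv_rev]
    have eb1 : b1 = b⁻¹ * b2⁻¹ := by
      have : b1 * (b2 * b) = 1 := by rw [← mul_assoc]; exact Tb
      rw [eq_inv_of_mul_eq_one_left this, mul_inv_rev]
    rw [ea1, eb1] at Tx
    have e3 : a⁻¹ * a2⁻¹ * b2 * a2 * b * a * (b⁻¹ * b2⁻¹)
        = a⁻¹ * a2⁻¹ * (b2 * a2) * (b * a) * b⁻¹ * b2⁻¹ := by group
    rw [e3, h22, ← hab] at Tx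
    have e4 : a⁻¹ * a2⁻¹ * (a2 * b2) * (a * b) * b⁻¹ * b2⁻¹ = a⁻¹ * b2 * a * b2⁻¹ := by group
    rw [e4] at Tx
    have e5 : a⁻¹ * b2 * a = b2 := mul_inv_eq_one.mp Tx
    calc a * b2 = a * (a⁻¹ * b2 * a) := by rw [e5]
      _ = b2 * a := by group
  -- conjugate form: a commutes with the c-conjugate of b
  have hG' : ∀ a ∈ H, ∀ b ∈ H, a * b = b * a → a * (c * b * c⁻¹) = (c * b * c⁻¹) * a := by
    intro a ha b hb hab
    have h := hG b hb a ha hab.symm
    have e1 : (c * b * c⁻¹) * ((c * c * c) * a * (c * c * c)⁻¹)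
        = c * (b * (c * c * a * c⁻¹ * c⁻¹)) * c⁻¹ := by group
    have e2 : ((c * c * c) * a * (c * c * c)⁻¹) * (c * b * c⁻¹)
        = c * ((c * c * a * c⁻¹ * c⁻¹) * b) * c⁻¹ := by group
    rw [h, ← e2, hc3, one_mul, inv_one, mul_one] at e1
    exact e1.symm
  -- squares of t-twisted elements
  have htinv : t⁻¹ = t := inv_eq_of_mul_eq_one_left ht2
  have hsq4 : ∀ h ∈ H, (t * h * t⁻¹ * h) * (t * h * t⁻¹ * h) = 1 := by
    intro h hh
    have h5 := h4 h hh
    rw [pow_succ, pow_succ, pow_succ, pow_one] at h5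
    rw [htinv]
    simpa [mul_assoc] using h5
  -- central part
  obtain ⟨Z, hZdef⟩ : ∃ Z : Subgroup G, Z = H ⊓ Subgroup.centralizer (H : Set G) := ⟨_, rfl⟩
  have hZn : Z.Normal := by rw [hZdef]; infer_instance
  have hZH : Z ≤ H := by rw [hZdef]; exact inf_le_left
  have hZmem : ∀ z : G, z ∈ Z ↔ z ∈ H ∧ ∀ h ∈ H, h * z = z * h := by
    intro z
    rw [hZdef, Subgroup.mem_inf, Subgroup.mem_centralizer_iff]
    rfl
  have hZcomm : ∀ a ∈ Z, ∀ b ∈ Z, a * b = b * a := by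
    intro a ha b hb
    exact ((hZmem b).mp hb).2 a (hZH ha)
  -- conjugation identities
  have hconj_tt : ∀ v : G, t * (t * v * t⁻¹) * t⁻¹ = v := by
    intro v
    have e : t * (t * v * t⁻¹) * t⁻¹ = (t * t) * v * (t * t)⁻¹ := by group
    rw [e, ht2]; group
  have hconj_ct : ∀ v : G, c * (t * v * t⁻¹) * c⁻¹ = t * (c * c * v * c⁻¹ * c⁻¹) * t⁻¹ := by
    intro v
    have e : c * (t * v * t⁻¹) * c⁻¹ = (c * t) * v * (c * t)⁻¹ := by group
    rw [e, hct]; group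
  have hrot : ∀ v ∈ H, t * v * t⁻¹ * (t * (c * v * c⁻¹) * t⁻¹) * (t * (c * c * v * c⁻¹ * c⁻¹) * t⁻¹) = 1 := by
    intro v hv
    have h := hT v hv
    have e : t * v * t⁻¹ * (t * (c * v * c⁻¹) * t⁻¹) * (t * (c * c * v * c⁻¹ * c⁻¹) * t⁻¹)
        = t * v * (c * v * c⁻¹ * (c * c * v * c⁻¹ * c⁻¹) * v) * v⁻¹ * t⁻¹ := by group
    rw [e, h]; group
  -- the two special elements attached to v
  have hAel : ∀ v ∈ H, t * (c * v * c⁻¹ * (t * v * t⁻¹)) * t⁻¹ * (c * v * c⁻¹ * (t * v * t⁻¹))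
      = t * (c * v * c⁻¹) * t⁻¹ * v * (c * v * c⁻¹ * (t * v * t⁻¹)) := by
    intro v hv
    have e : t * (c * v * c⁻¹ * (t * v * t⁻¹)) * t⁻¹ * (c * v * c⁻¹ * (t * v * t⁻¹))
        = t * (c * v * c⁻¹) * t⁻¹ * (t * (t * v * t⁻¹) * t⁻¹) * (c * v * c⁻¹ * (t * v * t⁻¹)) := by group
    rw [e, hconj_tt]
  have hBel : ∀ v : G, c * (t * v * t⁻¹ * v) * c⁻¹
      = t * (c * c * v * c⁻¹ * c⁻¹) * t⁻¹ * (c * v * c⁻¹) := by
    intro v
    have e : c * (t * v * t⁻¹ * v) * c⁻¹ = c * (t * v * t⁻¹) * c⁻¹ * (c * v * c⁻¹) := by group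
    rw [e, hconj_ct]
  -- central elements of H have order at most two
  have hZ2 : ∀ v ∈ Z, v * v = 1 := by
    intro v hv
    have hvH := hZH hv
    have hcv : c * v * c⁻¹ ∈ Z := hZn.conj_mem v hv c
    have htv : t * v * t⁻¹ ∈ Z := hZn.conj_mem v hv t
    have htcv : t * (c * v * c⁻¹) * t⁻¹ ∈ Z := hZn.conj_mem _ hcv t
    have hccv : c * c * v * c⁻¹ * c⁻¹ ∈ Z := by
      have := hZn.conj_mem _ hcv c
      have e : c * (c * v * c⁻¹) * c⁻¹ = c * c * v * c⁻¹ * c⁻¹ := by group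
      rwa [e] at this
    have htccv : t * (c * c * v * c⁻¹ * c⁻¹) * t⁻¹ ∈ Z := hZn.conj_mem _ hccv t
    have key := comm_core Z hZcomm v (c * v * c⁻¹) (t * v * t⁻¹) (t * (c * v * c⁻¹) * t⁻¹)
      (t * (c * c * v * c⁻¹ * c⁻¹) * t⁻¹) hv hcv htv htcv htccv (hrot v hvH)
    rw [← hAel v hvH, ← hBel v] at key
    obtain ⟨w, hw⟩ : ∃ w, w = c * v * c⁻¹ * (t * v * t⁻¹) := ⟨_, rfl⟩
    have hwZ : w ∈ Z := hw ▸ Z.mul_mem hcv htv
    obtain ⟨A, hA⟩ : ∃ A, A = t * w * t⁻¹ * w := ⟨_, rfl⟩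
    obtain ⟨B, hB⟩ : ∃ B, B = c * (t * v * t⁻¹ * v) * c⁻¹ := ⟨_, rfl⟩
    rw [← hw, ← hA, ← hB] at key
    have hAA : A * A = 1 := hA ▸ hsq4 w (hZH hwZ)
    have hBB : B * B = 1 := by
      have h := hsq4 v hvH
      rw [hB]
      calc c * (t * v * t⁻¹ * v) * c⁻¹ * (c * (t * v * t⁻¹ * v) * c⁻¹)
          = c * ((t * v * t⁻¹ * v) * (t * v * t⁻¹ * v)) * c⁻¹ := by group
        _ = 1 := by rw [h]; group
    have hAZ : A ∈ Z := hA ▸ Z.mul_mem (hZn.conj_mem _ hwZ t) hwZ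
    have hBZ : B ∈ Z := hB ▸ hZn.conj_mem _ (Z.mul_mem htv hv) c
    have hABcomm : A * B = B * A := hZcomm A hAZ B hBZ
    have h1 : (A * B) * (A * B) = 1 := by
      calc (A * B) * (A * B) = A * (B * A) * B := by group
        _ = A * (A * B) * B := by rw [hABcomm]
        _ = (A * A) * (B * B) := by group
        _ = 1 := by rw [hAA, hBB, one_mul]
    rw [key] at h1
    obtain ⟨u, hu⟩ : ∃ u, u = c * v * c⁻¹ := ⟨_, rfl⟩
    rw [← hu] at h1
    have huZ : u ∈ Z := hu ▸ hcv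
    have hu4 : u * u * (u * u) = 1 := by
      have := hH4 u (hZH huZ)
      rw [pow_succ, pow_succ, pow_succ, pow_one] at this
      rw [← this]; group
    have hvu : v * (u * u) = (u * u) * v := hZcomm v hv (u * u) (Z.mul_mem huZ huZ)
    calc v * v = v * v * (u * u * (u * u)) := by rw [hu4, mul_one]
      _ = v * (v * (u * u)) * (u * u) := by group
      _ = v * ((u * u) * v) * (u * u) := by rw [hvu]
      _ = (v * (u * u)) * (v * (u * u)) := by group
      _ = 1 := h1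
  -- commutators are central
  have hκZ : ∀ x ∈ H, ∀ z ∈ H, z * x * z⁻¹ * x⁻¹ ∈ Z := by
    intro x hx z hz
    rw [hZmem]
    exact ⟨H.mul_mem (H.mul_mem (H.mul_mem hz hx) (H.inv_mem hz)) (H.inv_mem hx),
      fun h hh => hcl x hx h hh z hz⟩
  -- squares are central
  have hsqZ : ∀ x ∈ H, x * x ∈ Z := by
    intro x hx
    rw [hZmem]
    refine ⟨H.mul_mem hx hx, fun h hh => ?_⟩
    obtain ⟨κ, hκ⟩ : ∃ κ, κ = x * h * x⁻¹ * h⁻¹ := ⟨_, rfl⟩
    have hκZ' : κ ∈ Z := hκ ▸ hκZ h hh x hx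
    have hκ2 := hZ2 κ hκZ'
    have hκx : x * κ = κ * x := ((hZmem κ).mp hκZ').2 x hx
    have e2 : x * κ * x⁻¹ = κ := by rw [hκx]; group
    have e : x * x * h = (x * κ * x⁻¹) * κ * h * (x * x) := by rw [hκ]; group
    rw [e, e2, hκ2, one_mul]
  have hα : ∀ h1 ∈ H, ∀ h2 ∈ H,
      (t * h1 * t⁻¹ * h1) * (t * h2 * t⁻¹ * h2) = (t * h2 * t⁻¹ * h2) * (t * h1 * t⁻¹ * h1) := by
    intro h1 hh1 h2 hh2
    have hth1 : t * h1 * t⁻¹ ∈ H := hHn.conj_mem h1 hh1 t
    have hth2 : t * h2 * t⁻¹ ∈ H := hHn.conj_mem h2 hh2 t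
    obtain ⟨κ, hκ⟩ : ∃ κ, κ = (t * h2 * t⁻¹) * h1 * (t * h2 * t⁻¹)⁻¹ * h1⁻¹ := ⟨_, rfl⟩
    have hκZ' : κ ∈ Z := hκ ▸ hκZ h1 hh1 _ hth2
    have hκ2 := hZ2 κ hκZ'
    have hκc : ∀ y ∈ H, y * κ = κ * y := ((hZmem κ).mp hκZ').2
    have e12 : t * (h1 * h2) * t⁻¹ * (h1 * h2)
        = κ * ((t * h1 * t⁻¹ * h1) * (t * h2 * t⁻¹ * h2)) := by
      have e : t * (h1 * h2) * t⁻¹ * (h1 * h2)
          = (t * h1 * t⁻¹) * κ * h1 * (t * h2 * t⁻¹ * h2) := by
        rw [hκ]; group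
      rw [e, hκc _ hth1]; group
    have h12 := hsq4 (h1 * h2) (H.mul_mem hh1 hh2)
    rw [e12] at h12
    obtain ⟨a, ha⟩ : ∃ a, a = t * h1 * t⁻¹ * h1 := ⟨_, rfl⟩
    obtain ⟨b, hb⟩ : ∃ b, b = t * h2 * t⁻¹ * h2 := ⟨_, rfl⟩
    rw [← ha, ← hb] at h12 ⊢
    have haH : a ∈ H := ha ▸ H.mul_mem hth1 hh1
    have hbH : b ∈ H := hb ▸ H.mul_mem hth2 hh2
    have haa : a * a = 1 := ha ▸ hsq4 h1 hh1
    have hbb : b * b = 1 := hb ▸ hsq4 h2 hh2
    have habH : a * b ∈ H := H.mul_mem haH hbH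
    have e5 : (κ * (a * b)) * (κ * (a * b)) = (κ * κ) * ((a * b) * (a * b)) := by
      calc (κ * (a * b)) * (κ * (a * b)) = κ * ((a * b) * κ) * (a * b) := by group
        _ = κ * (κ * (a * b)) * (a * b) := by rw [hκc _ habH]
        _ = (κ * κ) * ((a * b) * (a * b)) := by group
    rw [e5, hκ2, one_mul] at h12
    have hainv : a⁻¹ = a := inv_eq_of_mul_eq_one_left haa
    have hbinv : b⁻¹ = b := inv_eq_of_mul_eq_one_left hbb
    have e6 : b * a = a⁻¹ * ((a * b) * (a * b)) * b⁻¹ := by group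
    rw [h12, mul_one, hainv, hbinv] at e6
    exact e6.symm
  intro v hv
  have hcv : c * v * c⁻¹ ∈ H := hHn.conj_mem v hv c
  have htv : t * v * t⁻¹ ∈ H := hHn.conj_mem v hv t
  have htcv : t * (c * v * c⁻¹) * t⁻¹ ∈ H := hHn.conj_mem _ hcv t
  have hccv : c * c * v * c⁻¹ * c⁻¹ ∈ H := by
    have := hHn.conj_mem _ hcv c
    have e : c * (c * v * c⁻¹) * c⁻¹ = c * c * v * c⁻¹ * c⁻¹ := by group
    rwa [e] at this
  have htccv : t * (c * c * v * c⁻¹ * c⁻¹) * t⁻¹ ∈ H := hHn.conj_mem _ hccv t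
  haveI := hZn
  have hHbar : ∀ x ∈ H.map (QuotientGroup.mk' Z), ∀ y ∈ H.map (QuotientGroup.mk' Z), x * y = y * x := by
    rintro _ ⟨x, hx, rfl⟩ _ ⟨y, hy, rfl⟩
    rw [← map_mul, ← map_mul]
    show ((x * y : G) : G ⧸ Z) = ((y * x : G) : G ⧸ Z)
    rw [QuotientGroup.eq]
    have := hκZ x⁻¹ (H.inv_mem hx) y⁻¹ (H.inv_mem hy)
    have e : (x * y)⁻¹ * (y * x) = y⁻¹ * x⁻¹ * y⁻¹⁻¹ * x⁻¹⁻¹ := by group
    rw [e]; exact this
  have key := comm_core (H.map (QuotientGroup.mk' Z)) hHbar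
    (QuotientGroup.mk' Z v) (QuotientGroup.mk' Z (c * v * c⁻¹)) (QuotientGroup.mk' Z (t * v * t⁻¹))
    (QuotientGroup.mk' Z (t * (c * v * c⁻¹) * t⁻¹))
    (QuotientGroup.mk' Z (t * (c * c * v * c⁻¹ * c⁻¹) * t⁻¹))
    (Subgroup.mem_map_of_mem _ hv) (Subgroup.mem_map_of_mem _ hcv) (Subgroup.mem_map_of_mem _ htv)
    (Subgroup.mem_map_of_mem _ htcv) (Subgroup.mem_map_of_mem _ htccv)
    (by rw [← map_mul, ← map_mul, hrot v hv, map_one])
  rw [← map_mul, ← map_mul, ← map_mul, ← map_mul, ← map_mul, ← map_mul, ← hAel v hv, ← hBel v] at key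
  have hcvcv : QuotientGroup.mk' Z (c * v * c⁻¹ * (c * v * c⁻¹)) = 1 := by
    show ((c * v * c⁻¹ * (c * v * c⁻¹) : G) : G ⧸ Z) = 1
    rw [QuotientGroup.eq_one_iff]
    exact hsqZ _ hcv
  rw [hcvcv, mul_one] at key
  obtain ⟨w, hw⟩ : ∃ w, w = c * v * c⁻¹ * (t * v * t⁻¹) := ⟨_, rfl⟩
  have hwH : w ∈ H := hw ▸ H.mul_mem hcv htv
  obtain ⟨A, hA⟩ : ∃ A, A = t * w * t⁻¹ * w := ⟨_, rfl⟩
  obtain ⟨b, hb⟩ : ∃ b, b = t * v * t⁻¹ * v := ⟨_, rfl⟩
  obtain ⟨B, hB⟩ : ∃ B, B = c * b * c⁻¹ := ⟨_, rfl⟩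
  rw [← hw, ← hA, ← hb, ← hB] at key
  have hAH : A ∈ H := hA ▸ H.mul_mem (hHn.conj_mem _ hwH t) hwH
  have hbH : b ∈ H := hb ▸ H.mul_mem htv hv
  have hBH : B ∈ H := hB ▸ hHn.conj_mem _ hbH c
  have hAA : A * A = 1 := hA ▸ hsq4 w hwH
  have hbb : b * b = 1 := hb ▸ hsq4 v hv
  have hBB : B * B = 1 := by
    rw [hB]
    calc c * b * c⁻¹ * (c * b * c⁻¹) = c * (b * b) * c⁻¹ := by group
      _ = 1 := by rw [hbb]; group
  have hAb : A * b = b * A := by rw [hA, hb]; exact hα w hwH v hv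
  have hAB : A * B = B * A := hB ▸ hG' A hAH b hbH hAb
  have hm : (A * B)⁻¹ * v ∈ Z := by
    have : ((A * B : G) : G ⧸ Z) = ((v : G) : G ⧸ Z) := key
    rwa [QuotientGroup.eq] at this
  obtain ⟨m, hmdef⟩ : ∃ m, m = (A * B)⁻¹ * v := ⟨_, rfl⟩
  rw [← hmdef] at hm
  have hv' : v = (A * B) * m := by rw [hmdef]; group
  have hmm := hZ2 m hm
  have hmc : (A * B) * m = m * (A * B) := ((hZmem m).mp hm).2 _ (H.mul_mem hAH hBH)
  have hABAB : (A * B) * (A * B) = 1 := by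
    calc (A * B) * (A * B) = A * (B * A) * B := by group
      _ = A * (A * B) * B := by rw [hAB]
      _ = (A * A) * (B * B) := by group
      _ = 1 := by rw [hAA, hBB, one_mul]
  rw [hv']
  calc (A * B) * m * ((A * B) * m) = (A * B) * (m * (A * B)) * m := by group
    _ = (A * B) * ((A * B) * m) * m := by rw [hmc]
    _ = ((A * B) * (A * B)) * (m * m) := by group
    _ = 1 := by rw [hABAB, hmm, one_mul]

theorem unique_invol_exp4 {C : Type*} [Group C] [Finite C] (s : C) (hs : orderOf s = 2)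
    (huniq : ∀ t : C, orderOf t = 2 → t = s) (h4 : ∀ g : C, g ^ 4 = 1)
    (u : C) (hu1 : u ≠ 1) (hus : u ≠ s) :
    (IsCyclic C ∧ Nat.card C = 4) ∨ Nonempty (C ≃* QuaternionGroup 2) := by
  have hs1 : s ≠ 1 := by
    rintro rfl; rw [orderOf_one] at hs; omega
  have hss : s * s = 1 := by
    have := pow_orderOf_eq_one s
    rwa [hs, pow_two] at this
  have hsinv : s⁻¹ = s := inv_eq_of_mul_eq_one_left hss
  have hsq : ∀ g : C, g ≠ 1 → g ≠ s → g * g = s := by
    intro g hg1 hgs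
    apply huniq
    have h1 : (g * g) ^ 2 = 1 := by
      have := h4 g
      rw [pow_succ, pow_succ, pow_succ, pow_one] at this
      rw [pow_two, ← this]; group
    have h2 : g * g ≠ 1 := by
      intro h
      apply hgs
      apply huniq
      exact orderOf_eq_prime (by rw [pow_two]; exact h) hg1
    exact orderOf_eq_prime h1 h2
  have hscen : ∀ g : C, g * s = s * g := by
    intro g
    have h1 : orderOf (g * s * g⁻¹) = 2 := by
      rw [← hs]; exact MulEquiv.orderOf_eq (MulAut.conj g) s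
    have h2 := huniq _ h1
    calc g * s = (g * s * g⁻¹) * g := by group
      _ = s * g := by rw [h2]
  have hcomm_cases : ∀ g w : C, g ≠ 1 → g ≠ s → w ≠ 1 → w ≠ s → g * w = w * g →
      g = w ∨ g = s * w := by
    intro g w hg1 hgs hw1 hws hgw
    have hc : w⁻¹ * g = g * w⁻¹ := by
      calc w⁻¹ * g = w⁻¹ * (g * w) * w⁻¹ := by group
        _ = w⁻¹ * (w * g) * w⁻¹ := by rw [hgw]
        _ = g * w⁻¹ := by group
    have h1 : (g * w⁻¹) * (g * w⁻¹) = 1 := by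
      calc (g * w⁻¹) * (g * w⁻¹) = g * (w⁻¹ * g) * w⁻¹ := by group
        _ = g * (g * w⁻¹) * w⁻¹ := by rw [hc]
        _ = (g * g) * (w * w)⁻¹ := by group
        _ = 1 := by rw [hsq g hg1 hgs, hsq w hw1 hws, mul_inv_cancel]
    by_cases h2 : g * w⁻¹ = 1
    · left
      calc g = (g * w⁻¹) * w := by group
        _ = w := by rw [h2, one_mul]
    · right
      have h3 : g * w⁻¹ = s := huniq _ (orderOf_eq_prime (by rw [pow_two]; exact h1) h2)
      calc g = (g * w⁻¹) * w := by group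
        _ = s * w := by rw [h3]
  have hord4 : ∀ g : C, g ≠ 1 → g ≠ s → orderOf g = 2 ^ (1 + 1) := by
    intro g hg1 hgs
    apply orderOf_eq_prime_pow
    · rw [pow_one, pow_two, hsq g hg1 hgs]; exact hs1
    · exact h4 g
  by_cases hab : ∀ x y : C, x * y = y * x
  · left
    have htop : ∀ w : C, w ∈ Subgroup.zpowers u := by
      intro w
      by_cases hw1 : w = 1
      · rw [hw1]; exact one_mem _
      by_cases hws : w = s
      · rw [hws, ← hsq u hu1 hus]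
        exact mul_mem (Subgroup.mem_zpowers u) (Subgroup.mem_zpowers u)
      rcases hcomm_cases w u hw1 hws hu1 hus (hab w u) with h | h
      · rw [h]; exact Subgroup.mem_zpowers u
      · rw [h, ← hsq u hu1 hus]
        exact mul_mem (mul_mem (Subgroup.mem_zpowers u) (Subgroup.mem_zpowers u)) (Subgroup.mem_zpowers u)
    refine ⟨⟨u, htop⟩, ?_⟩
    have h1 : Subgroup.zpowers u = ⊤ := eq_top_iff.mpr (fun w _ => htop w)
    have h2 := Nat.card_zpowers u
    rw [h1, Subgroup.card_top, hord4 u hu1 hus] at h2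
    exact h2
  · right
    push Not at hab
    obtain ⟨x, y, hxy⟩ := hab
    have hx1 : x ≠ 1 := by rintro rfl; exact hxy (by group)
    have hy1 : y ≠ 1 := by rintro rfl; exact hxy (by group)
    have hxs : x ≠ s := by rintro rfl; exact hxy (hscen y).symm
    have hys : y ≠ s := by rintro rfl; exact hxy (hscen x)
    have hxx := hsq x hx1 hxs
    have hinvert : ∀ w : C, x * w ≠ w * x → w * x * w⁻¹ = x⁻¹ := by
      intro w hw
      have hw1 : w ≠ 1 := by rintro rfl; exact hw (by group)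
      have hws : w ≠ s := by rintro rfl; exact hw (hscen x)
      have hxw1 : x * w ≠ 1 := by
        intro h
        apply hw
        have : w = x⁻¹ := eq_inv_of_mul_eq_one_right h
        rw [this]; group
      have hxws : x * w ≠ s := by
        intro h
        apply hw
        have : w = x⁻¹ * s := by rw [← h]; group
        rw [this, mul_assoc, ← hscen x]; group
      have h5 := hsq (x * w) hxw1 hxws
      rw [← hxx] at h5
      have h6 : w * x * w = x := by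
        have : x * (w * x * w) = x * x := by rw [← h5]; group
        exact mul_left_cancel this
      have hxinv : x⁻¹ = x * (x * x) := by
        symm
        apply eq_inv_of_mul_eq_one_right
        have := h4 x
        rw [pow_succ, pow_succ, pow_succ, pow_one] at this
        rw [← this]; group
      calc w * x * w⁻¹ = (w * x * w) * (w * w)⁻¹ := by group
        _ = x * s⁻¹ := by rw [h6, hsq w hw1 hws]
        _ = x⁻¹ := by rw [hsinv, hxinv, hxx]
    have hρ : x ^ (2 * 2) = 1 := h4 x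
    have hyy' : y * y = x ^ 2 := by rw [pow_two, hxx, hsq y hy1 hys]
    have hconj := hinvert y hxy
    have hnot : y ∉ Subgroup.zpowers x := by
      intro h
      obtain ⟨k, rfl⟩ := Subgroup.mem_zpowers_iff.mp h
      exact hxy (by group)
    obtain ⟨f, hf⟩ : ∃ f : QuaternionGroup 2 →* C,
        f = Cfsg.Agent.Lib.helper1.quatHom y x 2 hρ hyy' hconj := ⟨_, rfl⟩
    have hinj : Function.Injective f := by
      rw [hf]
      exact Cfsg.Agent.Lib.helper1.quatHom_injective y x 2 hρ hyy' hconj (hord4 x hx1 hxs) hnot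
    have hxQ : x ∈ f.range := by
      refine ⟨QuaternionGroup.a 1, ?_⟩
      rw [hf, Cfsg.Agent.Lib.helper1.quatHom_a]
      have := Cfsg.Agent.Lib.helper1.zpowMod_natCast x (2 * 2) hρ 1
      rw [Nat.cast_one, pow_one] at this
      exact this
    have hyQ : y ∈ f.range := by
      refine ⟨QuaternionGroup.xa 0, ?_⟩
      rw [hf, Cfsg.Agent.Lib.helper1.quatHom_xa, Cfsg.Agent.Lib.helper1.zpowMod_zero, mul_one]
    have hsQ : s ∈ f.range := by rw [← hxx]; exact mul_mem hxQ hxQ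
    have hcentQ : ∀ z : C, z * x = x * z → z ∈ f.range := by
      intro z hz
      by_cases hz1 : z = 1
      · rw [hz1]; exact one_mem _
      by_cases hzs : z = s
      · rw [hzs]; exact hsQ
      rcases hcomm_cases z x hz1 hzs hx1 hxs hz with h | h
      · rw [h]; exact hxQ
      · rw [h]; exact mul_mem hsQ hxQ
    have hsurj : Function.Surjective f := by
      intro w
      have hw : w ∈ f.range := by
        by_cases hwx : x * w = w * x
        · exact hcentQ w hwx.symm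
        · have h1 := hinvert w hwx
          have h2 : (y⁻¹ * w) * x = x * (y⁻¹ * w) := by
            have e : (y⁻¹ * w) * x = y⁻¹ * (w * x * w⁻¹) * w := by group
            have e2 : y⁻¹ * x⁻¹ = x * y⁻¹ := by
              calc y⁻¹ * x⁻¹ = y⁻¹ * (y * x * y⁻¹) := by rw [hconj]
                _ = x * y⁻¹ := by group
            rw [e, h1, e2]; group
          have h3 := hcentQ _ h2
          have e : w = y * (y⁻¹ * w) := by group
          rw [e]; exact mul_mem hyQ h3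
      exact hw
    exact ⟨(MulEquiv.ofBijective f ⟨hinj, hsurj⟩).symm⟩

end Cfsg.Agent.Lib.helper21
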